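import Cfsg.Agent.H141.BM.Defs

/-!
# S4884, the Baby Monster: piece VAL (helper465)

`val_holds` : the values of the characters of degree `4371`, `63532485`, `13508418144` at the transpositions, and of the
first one at the products of two transpositions.

On the eigenspace of `v0` the transposition of `x` is `-(315/4) |v_x⟩⟨v_x| + (7/7020) ∑_{c x w = 3} |v_w⟩⟨v_w| - 1`
(`star`): the sum of the squares of the entries of the difference is zero.
-/

set_option autoImplicit false
set_option linter.unusedSectionVars false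

namespace Cfsg.Agent.H465.BM.Val

open Cfsg.Agent.H816.IMEig Cfsg.Agent.H816.IMEig.Col Cfsg.Agent.H141.BM

universe u v

/-- the rational values of `v0` -/
def vq : Fin 8 → ℚ := ![1, -1, 1/7, -1/7, 1/28, -1/28, 0, 0]

theorem v0_eq (u : Fin 8) : v0 u = (vq u : ℂ) := by
  fin_cases u <;> simp [v0, vq]

/-- the subdegrees -/
def kv : Fin 8 → ℕ := ![1, 1, 3968055, 3968055, 2370830336, 2370830336, 46227456, 22348085760]

theorem kv_eq : ∀ u, ∑ w, t8 u w = kv u := by decide +kernel

section

variable {G : Type u} [Group G] {X : Type v} [MulAction G X] {c : X → X → Fin 8} {τ : X → G}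

/-- sums of functions of the colour -/
theorem sum_col [Fintype X] {R : Type} [CommRing R] (F : Fr G X c τ) (x : X) (f : Fin 8 → R) :
    ∑ y, f (c x y) = ∑ u, (kv u : R) * f u := by
  classical
  obtain ⟨x₀, z₀, -, h⟩ := F.ex
  have hk : ∀ u, (kv u : R) * f u = ∑ y : X, if c x y = u then f u else 0 := by
    intro u
    rw [← Finset.sum_filter, Finset.sum_const, nsmul_eq_mul]
    congr 2
    rw [← kv_eq]
    have h1 := Col.kk_eq_sum (c := c) x₀ z₀ u
    rw [F.col.kk_eq x₀ x] at h1
    have h2 : kk c x u = ∑ w, t8 u w := h1.trans (Finset.sum_congr rfl fun w _ => h u w)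
    rw [← h2]
    unfold kk
    rw [Nat.card_eq_fintype_card, Fintype.card_subtype]
  simp only [hk]
  rw [Finset.sum_comm]
  refine Finset.sum_congr rfl fun y _ => ?_
  rw [Finset.sum_ite_eq]
  simp

/-- the colour of `(τ x • y, y)` -/
theorem tcol' (F : Fr G X c τ) (x y : X) : c (τ x • y) y = zc (c x y) := by
  rw [F.col.symm, F.tcol]

theorem SS0 : SS t8 v0 = 6210000 := by
  unfold SS
  simp only [kv_eq]
  rw [Fin.sum_univ_eight]
  simp [kv, v0]
  norm_num

theorem SS1 : SS t8 v1 = 27143910000 / 63532485 := by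
  unfold SS
  simp only [kv_eq]
  rw [Fin.sum_univ_eight]
  simp [kv, v1]
  norm_num

theorem SS2 : SS t8 v2 = 27143910000 / 13508418144 := by
  unfold SS
  simp only [kv_eq]
  rw [Fin.sum_univ_eight]
  simp [kv, v2]
  norm_num

section values

variable [Fintype X] (F : Fr G X c τ)
include F

theorem val0 (x : X) : (ch c v0 : G → ℂ) (τ x) = -493 := by
  unfold ch
  simp only [tcol' F]
  rw [sum_col F x (fun u => v0 (zc u)), SS0, Fin.sum_univ_eight]
  simp [kv, v0, zc]
  norm_num

theorem val1 (x : X) : (ch c v1 : G → ℂ) (τ x) = -468027 := by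
  unfold ch
  simp only [tcol' F]
  rw [sum_col F x (fun u => v1 (zc u)), SS1, Fin.sum_univ_eight]
  simp [kv, v1, zc]
  norm_num

theorem val2 (x : X) : (ch c v2 : G → ℂ) (τ x) = -18677152 := by
  unfold ch
  simp only [tcol' F]
  rw [sum_col F x (fun u => v2 (zc u)), SS2, Fin.sum_univ_eight]
  simp [kv, v2, zc]
  norm_num

end values

/-! ### The kernel -/

/-- the kernel -/
def K (c : X → X → Fin 8) (x y : X) : ℚ := vq (c x y)

section kernel

variable (F : Fr G X c τ)
include F

theorem K_symm (x y : X) : K c x y = K c y x := by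
  unfold K
  rw [F.col.symm]

theorem K_self (x : X) : K c x x = 1 := by
  unfold K
  rw [F.col.self]
  rfl

theorem K_tau (x y z : X) : K c (τ x • y) z = K c y (τ x • z) := by
  unfold K
  have h := F.col.inv (τ x) (τ x • y) z
  rw [← mul_smul, F.sq, one_smul] at h
  rw [h]

theorem K_self_tau (x y : X) : K c y (τ x • y) = vq (zc (c x y)) := by
  unfold K
  rw [F.tcol]

variable [Fintype X]

theorem card_X : (Fintype.card X : ℚ) = 27143910000 := by
  obtain ⟨x₀, -⟩ := F.ex
  have h := sum_col (R := ℚ) F x₀ (fun _ => 1)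
  rw [Finset.sum_const, Finset.card_univ, nsmul_eq_mul, mul_one, Fin.sum_univ_eight] at h
  rw [h]
  simp [kv]
  norm_num

/-- orthogonality -/
theorem orth [Finite G] (x y : X) : ∑ z, K c x z * K c z y = 6210000 * K c x y := by
  classical
  obtain ⟨x₀, z₀, h3, h⟩ := F.ex
  have h1 := congrFun (Col.EE_ee (x₀ := x₀) (z₀ := z₀) (t := t8) (θ := -566865) (ω := v0) F.col
    (fun u w => h u w) (by rw [h3]; exact F.e0) y) x
  rw [EE_apply, Finset.sum_apply, SS0] at h1
  have h2 : ((∑ z, K c x z * K c z y : ℚ) : ℂ) = ((6210000 * K c x y : ℚ) : ℂ) := by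
    rw [Rat.cast_sum, Rat.cast_mul]
    have h4 : ((6210000 : ℂ) • ee c v0 y) x = ((6210000 : ℚ) : ℂ) * (K c x y : ℂ) := by
      show (6210000 : ℂ) * v0 (c x y) = _
      rw [v0_eq]
      norm_num [K]
    rw [← h4, ← h1]
    refine Finset.sum_congr rfl fun z _ => ?_
    show ((K c x z * K c z y : ℚ) : ℂ) = v0 (c z y) * v0 (c x z)
    rw [v0_eq, v0_eq, Rat.cast_mul]
    unfold K
    ring
  exact_mod_cast h2

/-- `∑ K (τ z) y K z w K w y` -/
theorem sum_G [Finite G] (x w : X) : ∑ z, ∑ y, K c (τ x • z) y * (K c z w * K c w y) =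
    6210000 ^ 2 * K c w (τ x • w) := by
  have h1 : ∀ z, ∑ y, K c (τ x • z) y * (K c z w * K c w y) = 6210000 * (K c (τ x • w) z * K c z w) := by
    intro z
    have h2 : ∀ y, K c (τ x • z) y * (K c z w * K c w y) = K c z w * (K c (τ x • z) y * K c y w) := by
      intro y
      rw [K_symm F w y]
      ring
    simp only [h2]
    rw [← Finset.mul_sum, orth F, K_tau F, K_symm F z (τ x • w)]
    ring
  simp only [h1]
  rw [← Finset.mul_sum, orth F, K_symm F]
  ring

/-- `∑ K z w K w y K z w' K w' y` -/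
theorem sum_H [Finite G] (w w' : X) : ∑ z, ∑ y, K c z w * K c w y * (K c z w' * K c w' y) =
    6210000 ^ 2 * K c w w' ^ 2 := by
  have h1 : ∀ z, ∑ y, K c z w * K c w y * (K c z w' * K c w' y) = 6210000 * K c w w' * (K c w z * K c z w') := by
    intro z
    have h2 : ∀ y, K c z w * K c w y * (K c z w' * K c w' y) = K c w z * K c z w' * (K c w y * K c y w') := by
      intro y
      rw [K_symm F w' y, K_symm F z w]
      ring
    simp only [h2]
    rw [← Finset.mul_sum, orth F]
    ring
  simp only [h1]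
  rw [← Finset.mul_sum, orth F]
  ring

/-- `∑ K z w K w y K z y` -/
theorem sum_J [Finite G] (w : X) : ∑ z, ∑ y, K c z w * K c w y * K c z y = 6210000 ^ 2 := by
  have h1 : ∀ z, ∑ y, K c z w * K c w y * K c z y = 6210000 * (K c w z * K c z w) := by
    intro z
    have h2 : ∀ y, K c z w * K c w y * K c z y = K c z w * (K c w y * K c y z) := by
      intro y
      rw [K_symm F z y]
      ring
    simp only [h2]
    rw [← Finset.mul_sum, orth F]
    ring
  simp only [h1]
  rw [← Finset.mul_sum, orth F, K_self F]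
  ring

theorem sum_aa [Finite G] (x : X) : ∑ z, ∑ y, K c (τ x • z) y ^ 2 = 6210000 * 27143910000 := by
  have h1 : ∀ z, ∑ y, K c (τ x • z) y ^ 2 = 6210000 := by
    intro z
    have h2 : ∀ y, K c (τ x • z) y ^ 2 = K c (τ x • z) y * K c y (τ x • z) := by
      intro y
      rw [K_symm F y]
      ring
    simp only [h2]
    rw [orth F, K_self F, mul_one]
  simp only [h1]
  rw [Finset.sum_const, Finset.card_univ, nsmul_eq_mul, card_X F]
  ring

theorem sum_kk [Finite G] : ∑ z, ∑ y, K c z y ^ 2 = 6210000 * 27143910000 := by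
  have h1 : ∀ z, ∑ y, K c z y ^ 2 = 6210000 := by
    intro z
    have h2 : ∀ y, K c z y ^ 2 = K c z y * K c y z := by
      intro y
      rw [K_symm F y]
      ring
    simp only [h2]
    rw [orth F, K_self F, mul_one]
  simp only [h1]
  rw [Finset.sum_const, Finset.card_univ, nsmul_eq_mul, card_X F]
  ring

theorem sum_tau (x : X) : ∑ z, K c z (τ x • z) = -493 * 6210000 := by
  simp only [K_self_tau F]
  rw [sum_col F x (fun u => vq (zc u)), Fin.sum_univ_eight]
  simp [kv, vq, zc]
  norm_num

theorem sum_ak [Finite G] (x : X) : ∑ z, ∑ y, K c (τ x • z) y * K c z y = 6210000 * (-493 * 6210000) := by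
  have h1 : ∀ z, ∑ y, K c (τ x • z) y * K c z y = 6210000 * K c z (τ x • z) := by
    intro z
    have h2 : ∀ y, K c (τ x • z) y * K c z y = K c (τ x • z) y * K c y z := by
      intro y
      rw [K_symm F z y]
    simp only [h2]
    rw [orth F, K_tau F]
  simp only [h1]
  rw [← Finset.mul_sum, sum_tau F]

/-- the weights -/
def gw (c : X → X → Fin 8) (x w : X) : ℚ := (if c x w = 0 then (-315/4 : ℚ) else 0) + (if c x w = 3 then (7/7020 : ℚ) else 0)

theorem sum_gw (x : X) : ∑ w, gw c x w = -315/4 + 7/7020 * 3968055 := by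
  have h := sum_col F x (fun u => (if u = 0 then (-315/4 : ℚ) else 0) + (if u = 3 then (7/7020 : ℚ) else 0))
  refine h.trans ?_
  rw [Fin.sum_univ_eight]
  simp [kv]
  norm_num

theorem gw_tau {x w : X} (h : gw c x w ≠ 0) : K c w (τ x • w) = 1 := by
  rw [K_self_tau F]
  unfold gw at h
  by_cases h0 : c x w = 0
  · rw [h0]; rfl
  · by_cases h3 : c x w = 3
    · rw [h3]; rfl
    · rw [if_neg h0, if_neg h3, add_zero] at h
      exact absurd rfl h

theorem eq_of_zero {x w : X} (h : c x w = 0) : w = x := ((F.col.diag x w).1 h).symm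

theorem gw_self (x : X) : gw c x x = -315/4 := by
  unfold gw
  rw [F.col.self, if_pos rfl, if_neg (by decide), add_zero]

/-- `∑ w', g w' K w w' ^ 2` for `w` at colour 0 or 3 -/
theorem sum_ggw {x w : X} (h : c x w = 0 ∨ c x w = 3) : ∑ w', gw c x w' * K c w w' ^ 2 =
    if c x w = 0 then (-315/4 : ℚ) + 7/7020 * (3968055/49) else (-315/4 : ℚ) / 49 + 7/7020 * (2836080/784) := by
  classical
  rcases h with h | h
  · obtain rfl := eq_of_zero F h
    rw [if_pos h]
    have h1 := sum_col F w (fun u => ((if u = 0 then (-315/4 : ℚ) else 0) + (if u = 3 then (7/7020 : ℚ) else 0)) * vq u ^ 2)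
    refine h1.trans ?_
    rw [Fin.sum_univ_eight]
    simp [kv, vq]
    norm_num
  · rw [if_neg (by rw [h]; decide)]
    have h1 : ∀ w', gw c x w' * K c w w' ^ 2 = (if c x w' = 0 then (-315/4 : ℚ) / 49 else 0) +
        (7/7020 : ℚ) * ∑ v, if c x w' = 3 ∧ c w w' = v then vq v ^ 2 else 0 := by
      intro w'
      unfold gw
      by_cases h0 : c x w' = 0
      · obtain rfl := eq_of_zero F h0
        have h4 : K c w w' = -1/7 := by
          rw [K_symm F]
          unfold K
          rw [h]
          simp [vq]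
        rw [if_pos h0, if_pos h0, h4, if_neg (by rw [h0]; decide)]
        have h5 : ∑ v, (if c w' w' = 3 ∧ c w w' = v then vq v ^ 2 else 0) = 0 := by
          refine Finset.sum_eq_zero fun v _ => ?_
          rw [if_neg]
          rintro ⟨h6, -⟩
          rw [h0] at h6
          exact absurd h6 (by decide)
        rw [h5]
        norm_num
      · rw [if_neg h0, if_neg h0, zero_add, zero_add]
        by_cases h3 : c x w' = 3
        · rw [if_pos h3]
          have h5 : ∑ v, (if c x w' = 3 ∧ c w w' = v then vq v ^ 2 else 0) = K c w w' ^ 2 := by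
            rw [Finset.sum_eq_single (c w w')]
            · rw [if_pos ⟨h3, rfl⟩]
              rfl
            · intro v _ hv
              rw [if_neg]
              rintro ⟨-, h6⟩
              exact hv h6.symm
            · intro h6
              exact absurd (Finset.mem_univ _) h6
          rw [h5]
        · rw [if_neg h3, zero_mul]
          have h5 : ∑ v, (if c x w' = 3 ∧ c w w' = v then vq v ^ 2 else 0) = 0 := by
            refine Finset.sum_eq_zero fun v _ => ?_
            rw [if_neg]
            rintro ⟨h6, -⟩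
            exact h3 h6
          rw [h5, mul_zero]
    simp only [h1]
    rw [Finset.sum_add_distrib, ← Finset.mul_sum, Finset.sum_comm]
    have h2 : ∑ w' : X, (if c x w' = 0 then (-315/4 : ℚ) / 49 else 0) = (-315/4 : ℚ) / 49 := by
      rw [Finset.sum_eq_single x]
      · rw [if_pos (F.col.self x)]
      · intro y _ hy
        rw [if_neg]
        intro h6
        exact hy (eq_of_zero F h6)
      · intro h6
        exact absurd (Finset.mem_univ _) h6
    rw [h2]
    congr 2
    obtain ⟨x₀, z₀, h3, ht⟩ := F.ex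
    have h4 : ∀ v : Fin 8, ∑ w' : X, (if c x w' = 3 ∧ c w w' = v then vq v ^ 2 else 0) = (t8 3 v : ℚ) * vq v ^ 2 := by
      intro v
      rw [← Finset.sum_filter, Finset.sum_const, nsmul_eq_mul]
      congr 2
      rw [← ht, show Nat.card {y // c x₀ y = 3 ∧ c z₀ y = v} = tt c x₀ z₀ 3 v from rfl,
        ← F.col.tt_eq (h.trans h3.symm)]
      unfold tt
      rw [Nat.card_eq_fintype_card, Fintype.card_subtype]
    simp only [h4]
    rw [Fin.sum_univ_eight]
    simp [t8, vq]
    norm_num

theorem swap3 (f : X → X → X → ℚ) : ∑ z, ∑ y, ∑ w, f z y w = ∑ w, ∑ z, ∑ y, f z y w := by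
  have h : ∀ z, ∑ y, ∑ w, f z y w = ∑ w, ∑ y, f z y w := fun z => Finset.sum_comm
  simp only [h]
  exact Finset.sum_comm

theorem sum_as [Finite G] (x : X) : ∑ z, ∑ y, ∑ w, gw c x w * (K c (τ x • z) y * (K c z w * K c w y)) =
    6210000 ^ 2 * (-315/4 + 7/7020 * 3968055) := by
  rw [swap3 F]
  have h1 : ∀ w, ∑ z, ∑ y, gw c x w * (K c (τ x • z) y * (K c z w * K c w y)) = 6210000 ^ 2 * gw c x w := by
    intro w
    simp only [← Finset.mul_sum]
    rw [sum_G F]
    by_cases h : gw c x w = 0
    · rw [h]; ring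
    · rw [gw_tau F h]; ring
  simp only [h1]
  rw [← Finset.mul_sum, sum_gw F]

theorem sum_sk [Finite G] (x : X) : ∑ z, ∑ y, ∑ w, gw c x w * (K c z w * K c w y * K c z y) =
    6210000 ^ 2 * (-315/4 + 7/7020 * 3968055) := by
  rw [swap3 F]
  have h1 : ∀ w, ∑ z, ∑ y, gw c x w * (K c z w * K c w y * K c z y) = 6210000 ^ 2 * gw c x w := by
    intro w
    simp only [← Finset.mul_sum]
    rw [sum_J F]
    ring
  simp only [h1]
  rw [← Finset.mul_sum, sum_gw F]

theorem sum_ss [Finite G] (x : X) :
    ∑ z, ∑ y, ∑ w, ∑ w', gw c x w * (gw c x w' * (K c z w * K c w y * (K c z w' * K c w' y))) =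
    6210000 ^ 2 * (-315/4 * (-315/4 + 7/7020 * (3968055/49)) +
      3968055 * (7/7020 * ((-315/4) / 49 + 7/7020 * (2836080/784)))) := by
  rw [swap3 F]
  have h1 : ∀ w, ∑ z, ∑ y, ∑ w', gw c x w * (gw c x w' * (K c z w * K c w y * (K c z w' * K c w' y))) =
      6210000 ^ 2 * ((if c x w = 0 then -315/4 * ((-315/4 : ℚ) + 7/7020 * (3968055/49)) else 0) +
        (if c x w = 3 then 7/7020 * ((-315/4 : ℚ) / 49 + 7/7020 * (2836080/784)) else 0)) := by
    intro w
    rw [swap3 F]
    have h2 : ∀ w', ∑ z, ∑ y, gw c x w * (gw c x w' * (K c z w * K c w y * (K c z w' * K c w' y))) =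
        6210000 ^ 2 * gw c x w * (gw c x w' * K c w w' ^ 2) := by
      intro w'
      simp only [← Finset.mul_sum]
      rw [sum_H F]
      ring
    simp only [h2]
    rw [← Finset.mul_sum, mul_assoc]
    congr 1
    by_cases h0 : c x w = 0
    · rw [sum_ggw F (Or.inl h0), if_pos h0, if_pos h0, if_neg (by rw [h0]; decide), add_zero]
      congr 1
      unfold gw
      rw [if_pos h0, if_neg (by rw [h0]; decide), add_zero]
    · rw [if_neg h0, zero_add]
      by_cases h3 : c x w = 3
      · rw [sum_ggw F (Or.inr h3), if_neg h0, if_pos h3]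
        congr 1
        unfold gw
        rw [if_neg h0, if_pos h3, zero_add]
      · rw [if_neg h3]
        have h4 : gw c x w = 0 := by
          unfold gw
          rw [if_neg h0, if_neg h3, add_zero]
        rw [h4, zero_mul]
  simp only [h1]
  rw [← Finset.mul_sum]
  congr 1
  have h2 := sum_col F x (fun u => (if u = 0 then -315/4 * ((-315/4 : ℚ) + 7/7020 * (3968055/49)) else 0) +
        (if u = 3 then 7/7020 * ((-315/4 : ℚ) / 49 + 7/7020 * (2836080/784)) else 0))
  refine h2.trans ?_
  rw [Fin.sum_univ_eight]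
  simp [kv]

/-- the sum of the squares -/
theorem sum_sq [Finite G] (x : X) :
    ∑ z, ∑ y, (K c (τ x • z) y - ∑ w, gw c x w * (K c z w * K c w y) + K c z y) ^ 2 = 0 := by
  have e : ∀ z y, (K c (τ x • z) y - ∑ w, gw c x w * (K c z w * K c w y) + K c z y) ^ 2 =
      K c (τ x • z) y ^ 2 + K c z y ^ 2 + 2 * (K c (τ x • z) y * K c z y) -
      2 * (∑ w, gw c x w * (K c (τ x • z) y * (K c z w * K c w y))) -
      2 * (∑ w, gw c x w * (K c z w * K c w y * K c z y)) +
      ∑ w, ∑ w', gw c x w * (gw c x w' * (K c z w * K c w y * (K c z w' * K c w' y))) := by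
    intro z y
    have e1 : ∑ w, gw c x w * (K c (τ x • z) y * (K c z w * K c w y)) =
        K c (τ x • z) y * ∑ w, gw c x w * (K c z w * K c w y) := by
      rw [Finset.mul_sum]
      exact Finset.sum_congr rfl fun w _ => by ring
    have e2 : ∑ w, gw c x w * (K c z w * K c w y * K c z y) = (∑ w, gw c x w * (K c z w * K c w y)) * K c z y := by
      rw [Finset.sum_mul]
      exact Finset.sum_congr rfl fun w _ => by ring
    have e3 : ∑ w, ∑ w', gw c x w * (gw c x w' * (K c z w * K c w y * (K c z w' * K c w' y))) =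
        (∑ w, gw c x w * (K c z w * K c w y)) * (∑ w, gw c x w * (K c z w * K c w y)) := by
      rw [Finset.sum_mul_sum]
      exact Finset.sum_congr rfl fun w _ => Finset.sum_congr rfl fun w' _ => by ring
    rw [e1, e2, e3]
    ring
  simp only [e]
  have h : ∀ (a b d p q r : X → X → ℚ), ∑ z, ∑ y, (a z y + b z y + 2 * d z y - 2 * p z y - 2 * q z y + r z y) =
      ∑ z, ∑ y, a z y + ∑ z, ∑ y, b z y + 2 * (∑ z, ∑ y, d z y) - 2 * (∑ z, ∑ y, p z y) - 2 * (∑ z, ∑ y, q z y) +
        ∑ z, ∑ y, r z y := by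
    intro a b d p q r
    simp only [Finset.sum_add_distrib, Finset.sum_sub_distrib, ← Finset.mul_sum]
  rw [h, sum_aa F, sum_kk F, sum_ak F, sum_as F, sum_sk F, sum_ss F]
  norm_num

/-- **The transposition of `x` on the eigenspace.** -/
theorem star [Finite G] (x z y : X) : K c (τ x • z) y = ∑ w, gw c x w * (K c z w * K c w y) - K c z y := by
  have h := sum_sq F x
  have h1 := (Finset.sum_eq_zero_iff_of_nonneg (fun z _ => Finset.sum_nonneg fun y _ => sq_nonneg _)).1 h z
    (Finset.mem_univ z)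
  have h2 := (Finset.sum_eq_zero_iff_of_nonneg (fun y _ => sq_nonneg _)).1 h1 y (Finset.mem_univ y)
  have h3 := pow_eq_zero_iff (two_ne_zero) |>.1 h2
  linarith

/-- the trace of the product of two transpositions -/
theorem sum_two [Finite G] (x y : X) : ∑ z, K c (τ x • τ y • z) z =
    6210000 * (∑ w, gw c x w * vq (zc (c y w)) + 493) := by
  simp only [star F x]
  rw [Finset.sum_sub_distrib, Finset.sum_comm]
  have h1 : ∀ w, ∑ z, gw c x w * (K c (τ y • z) w * K c w z) = 6210000 * (gw c x w * vq (zc (c y w))) := by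
    intro w
    have h2 : ∀ z, gw c x w * (K c (τ y • z) w * K c w z) = gw c x w * (K c w z * K c z (τ y • w)) := by
      intro z
      rw [K_tau F, mul_comm (K c z (τ y • w))]
    simp only [h2]
    rw [← Finset.mul_sum, orth F, K_self_tau F]
    ring
  simp only [h1]
  have h3 : ∑ z, K c (τ y • z) z = -493 * 6210000 := by
    rw [← sum_tau F y]
    exact Finset.sum_congr rfl fun z _ => K_symm F _ _
  rw [h3, ← Finset.mul_sum]
  ring

/-- `k_u * ∑_{c x w = 3} f (c y w) = k_3 * ∑ v, t8 u v * f v` for `u = c x y` -/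
theorem sum_three (x y : X) (f : Fin 8 → ℚ) :
    (kv (c x y) : ℚ) * ∑ w, (if c x w = 3 then f (c y w) else 0) = 3968055 * ∑ v, (t8 (c x y) v : ℚ) * f v := by
  classical
  obtain ⟨x₀, z₀, h3, ht⟩ := F.ex
  have h1 : ∑ w, (if c x w = 3 then f (c y w) else 0) = ∑ v, (nn c 3 x y v : ℚ) * f v := by
    have h2 : ∀ v, (nn c 3 x y v : ℚ) * f v = ∑ z, if c x z = 3 ∧ c z y = v then f v else 0 := by
      intro v
      rw [← Finset.sum_filter, Finset.sum_const, nsmul_eq_mul]
      congr 2
      unfold nn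
      rw [Nat.card_eq_fintype_card, Fintype.card_subtype]
    simp only [h2]
    rw [Finset.sum_comm]
    refine Finset.sum_congr rfl fun z _ => ?_
    by_cases hz : c x z = 3
    · rw [if_pos hz, Finset.sum_eq_single (c z y)]
      · rw [if_pos ⟨hz, rfl⟩, F.col.symm]
      · intro w _ hw
        rw [if_neg (fun h => hw h.2.symm)]
      · intro h; exact absurd (Finset.mem_univ _) h
    · rw [if_neg hz]
      symm
      apply Finset.sum_eq_zero
      intro w _
      rw [if_neg (fun h => hz h.1)]
  rw [h1, Finset.mul_sum, Finset.mul_sum]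
  refine Finset.sum_congr rfl fun v _ => ?_
  have hk : ∀ u, kk c x₀ u = kv u := fun u => by
    rw [kk_eq_sum x₀ z₀ u, ← kv_eq]
    exact Finset.sum_congr rfl fun w _ => ht u w
  have h2 := F.col.nn_mul (x₀ := x₀) (z₀ := z₀) x y v
  rw [hk, h3, hk, show tt c x₀ z₀ (c x y) v = t8 (c x y) v from ht _ _] at h2
  have h4 : ((nn c 3 x y v * kv (c x y) : ℕ) : ℚ) = ((kv 3 * t8 (c x y) v : ℕ) : ℚ) := by rw [h2]
  rw [Nat.cast_mul, Nat.cast_mul] at h4
  have h5 : ((kv 3 : ℕ) : ℚ) = 3968055 := by simp [kv]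
  rw [h5] at h4
  calc (kv (c x y) : ℚ) * ((nn c 3 x y v : ℚ) * f v) = ((nn c 3 x y v : ℚ) * (kv (c x y) : ℚ)) * f v := by ring
    _ = 3968055 * ((t8 (c x y) v : ℚ) * f v) := by rw [h4]; ring

/-- the final numbers -/
theorem final (u : Fin 8) (s : ℚ) (hs : (kv u : ℚ) * s = 3968055 * ∑ v, (t8 u v : ℚ) * vq (zc v)) :
    -315/4 * vq (zc u) + 7/7020 * s + 493 = vl u := by
  rw [Fin.sum_univ_eight] at hs
  fin_cases u <;> simp [kv, t8, vq, zc, vl] at hs ⊢ <;> linarith

theorem sum_gtwo (x y : X) : ∑ w, gw c x w * vq (zc (c y w)) + 493 = vl (c x y) := by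
  have h1 := sum_three F x y (fun v => vq (zc v))
  have h2 := final F (c x y) _ h1
  rw [← h2]
  congr 1
  have h3 : ∀ w, gw c x w * vq (zc (c y w)) = (if c x w = 0 then -315/4 * vq (zc (c y w)) else 0) +
      7/7020 * (if c x w = 3 then vq (zc (c y w)) else 0) := by
    intro w
    unfold gw
    split_ifs <;> ring
  simp only [h3]
  rw [Finset.sum_add_distrib, ← Finset.mul_sum]
  congr 1
  rw [Finset.sum_eq_single x]
  · rw [if_pos (F.col.self x), F.col.symm y x]
  · intro w _ hw
    rw [if_neg]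
    intro h6
    exact hw (eq_of_zero F h6)
  · intro h6
    exact absurd (Finset.mem_univ _) h6

theorem val_two [Finite G] (x y : X) : (ch c v0 : G → ℂ) (τ x * τ y) = vl (c x y) := by
  unfold ch
  rw [SS0]
  have h1 : ∑ z, v0 (c ((τ x * τ y) • z) z) = ((∑ z, K c (τ x • τ y • z) z : ℚ) : ℂ) := by
    rw [Rat.cast_sum]
    refine Finset.sum_congr rfl fun z _ => ?_
    rw [v0_eq, mul_smul]
    rfl
  rw [h1, sum_two F, sum_gtwo F]
  push_cast
  field_simp

end kernel

end

/-- **Piece VAL.** -/
theorem val_holds {G : Type u} [Group G] [Finite G] {X : Type v} [MulAction G X] [Fintype X] {c : X → X → Fin 8}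
    {τ : X → G} : ValStmt G X c τ := fun F =>
  ⟨fun x => ⟨val0 F x, val1 F x, val2 F x⟩, val_two F⟩

end Cfsg.Agent.H465.BM.Val
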